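import Mathlib

set_option autoImplicit false

namespace Cfsg.Agent.Lib.Helper86.OneClassE

section basic

variable {W : Type*} [CommGroup W]

theorem inv_eq_self' (h2 : ∀ w : W, w * w = 1) (w : W) : w⁻¹ = w :=
  inv_eq_of_mul_eq_one_left (h2 w)

theorem cancel_left' (h2 : ∀ w : W, w * w = 1) (a b : W) : a * (a * b) = b := by
  rw [← mul_assoc, h2, one_mul]

theorem eq_iff_mul_eq_one' (h2 : ∀ w : W, w * w = 1) (a b : W) : a = b ↔ a * b = 1 := by
  constructor
  · rintro rfl; exact h2 a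
  · intro h
    calc a = a * (b * b) := by rw [h2, mul_one]
      _ = (a * b) * b := by rw [mul_assoc]
      _ = b := by rw [h, one_mul]

end basic

section step23

variable {W V : Type*} [CommGroup W] [Finite W] [Finite V]

/-- (2) a nontrivial `K`-invariant subgroup maps onto `V`. -/
theorem surj_on_invariant (Q : W → V) (hQs : Function.Surjective Q) (K : Subgroup (MulAut W))
    (hKtr : ∀ w w' : W, w ≠ 1 → w' ≠ 1 → ∃ k ∈ K, Q (k w) = Q w')
    (X : Subgroup W) (hX : ∀ k ∈ K, ∀ x ∈ X, k x ∈ X) (hX1 : X ≠ ⊥) :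
    Function.Surjective (fun x : X => Q x) := by
  obtain ⟨x, hxX, hx1⟩ := X.bot_or_exists_ne_one.resolve_left hX1
  intro v
  obtain ⟨w', rfl⟩ := hQs v
  by_cases hw' : w' = 1
  · exact ⟨1, by simp [hw']⟩
  · obtain ⟨k, hk, hkQ⟩ := hKtr x w' hx1 hw'
    exact ⟨⟨k x, hX k hk x hxX⟩, hkQ⟩

/-- (3) -/
theorem cosets_of_invariant (h2 : ∀ w : W, w * w = 1) (Q : W → V)
    (hQs : Function.Surjective Q) (K : Subgroup (MulAut W)) (hKodd : Odd (Nat.card K))
    (hKtr : ∀ w w' : W, w ≠ 1 → w' ≠ 1 → ∃ k ∈ K, Q (k w) = Q w')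
    (X : Subgroup W) (hX : ∀ k ∈ K, ∀ x ∈ X, k x ∈ X) (w : W) (hw : w ∉ X) :
    ∃ f : V → W ⧸ X, Function.Injective f ∧
      ∀ v, f v = ((1 : W) : W ⧸ X) ∨ ∃ k ∈ K, f v = ((k w : W) : W ⧸ X) := by
  classical
  let K1 : Subgroup (MulAut W) :=
    { carrier := {k | k ∈ K ∧ k w * w ∈ X}
      one_mem' := ⟨K.one_mem, by simp [h2]⟩
      mul_mem' := by
        rintro a b ⟨ha, ha'⟩ ⟨hb, hb'⟩
        refine ⟨K.mul_mem ha hb, ?_⟩
        have h1 : (a * b) w * w = a (b w * w) * (a w * w) := by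
          rw [MulAut.mul_apply, map_mul, mul_assoc, cancel_left' h2]
        rw [h1]
        exact X.mul_mem (hX a ha _ hb') ha'
      inv_mem' := by
        rintro a ⟨ha, ha'⟩
        refine ⟨K.inv_mem ha, ?_⟩
        have h1 : a⁻¹ w * w = a⁻¹ (a w * w) := by
          rw [map_mul, MulAut.inv_apply_self, mul_comm]
        rw [h1]
        exact hX _ (K.inv_mem ha) _ ha' }
  have hK1K : K1 ≤ K := fun k hk => hk.1
  have hK1odd : Odd (Nat.card K1) :=
    Odd.of_dvd_nat hKodd (Subgroup.card_dvd_of_le hK1K)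
  have : Fintype K1 := Fintype.ofFinite K1
  set w0 : W := ∏ k : K1, (k : MulAut W) w with hw0
  have hfix : ∀ k ∈ K1, k w0 = w0 := by
    intro k hk
    rw [hw0, map_prod]
    exact Fintype.prod_equiv (Equiv.mulLeft (⟨k, hk⟩ : K1)) _ _ (fun x => rfl)
  have hw0w : w0 * w ∈ X := by
    have h1 : w0 = (∏ k : K1, ((k : MulAut W) w * w)) * w := by
      rw [Finset.prod_mul_distrib, Finset.prod_const, Finset.card_univ,
        ← Nat.card_eq_fintype_card]
      obtain ⟨m, hm⟩ := hK1odd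
      rw [hm, pow_succ, pow_mul, pow_two, h2, one_pow, one_mul, mul_assoc, h2, mul_one]
    rw [h1, mul_assoc, h2, mul_one]
    exact X.prod_mem fun k _ => k.2.2
  have hw0X : w0 ∉ X := by
    intro h
    apply hw
    have := X.mul_mem h hw0w
    rwa [cancel_left' h2] at this
  have hw01 : w0 ≠ 1 := fun h => hw0X (h ▸ X.one_mem)
  have hex : ∀ v : V, ∃ a : W, (v = Q 1 ∧ a = 1) ∨
      (v ≠ Q 1 ∧ ∃ k ∈ K, Q (k w0) = v ∧ a = k w) := by
    intro v
    by_cases hv : v = Q 1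
    · exact ⟨1, Or.inl ⟨hv, rfl⟩⟩
    · obtain ⟨w', rfl⟩ := hQs v
      have hw' : w' ≠ 1 := fun h => hv (by rw [h])
      obtain ⟨k, hk, hkQ⟩ := hKtr w0 w' hw01 hw'
      exact ⟨k w, Or.inr ⟨hv, k, hk, hkQ, rfl⟩⟩
  choose f hf using hex
  have hkw : ∀ k ∈ K, k w ∉ X := by
    intro k hk h
    apply hw
    have := hX _ (K.inv_mem hk) _ h
    rwa [MulAut.inv_apply_self] at this
  refine ⟨fun v => (f v : W ⧸ X), ?_, ?_⟩
  · intro v v' hvv
    have hvv' : (f v)⁻¹ * f v' ∈ X := QuotientGroup.eq.mp hvv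
    rw [inv_eq_self' h2] at hvv'
    rcases hf v with ⟨hv, ha⟩ | ⟨hv, k, hk, hkQ, ha⟩ <;>
      rcases hf v' with ⟨hv', ha'⟩ | ⟨hv', k', hk', hkQ', ha'⟩
    · rw [hv, hv']
    · exfalso
      rw [ha, ha', one_mul] at hvv'
      exact hkw k' hk' hvv'
    · exfalso
      rw [ha, ha', mul_one] at hvv'
      exact hkw k hk hvv'
    · rw [ha, ha'] at hvv'
      have h1 : (k⁻¹ * k') ∈ K1 := by
        refine ⟨K.mul_mem (K.inv_mem hk) hk', ?_⟩
        have h3 : (k⁻¹ * k') w * w = k⁻¹ (k w * k' w) := by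
          rw [MulAut.mul_apply, map_mul, MulAut.inv_apply_self, mul_comm]
        rw [h3]
        exact hX _ (K.inv_mem hk) _ hvv'
      have h4 := hfix _ h1
      rw [MulAut.mul_apply] at h4
      have h5 : k' w0 = k w0 := by
        have h6 := congrArg k h4
        rwa [MulAut.apply_inv_self] at h6
      rw [← hkQ, ← hkQ', h5]
  · intro v
    rcases hf v with ⟨hv, ha⟩ | ⟨hv, k, hk, hkQ, ha⟩
    · left; simp only [ha]
    · right; exact ⟨k, hk, by simp only [ha]⟩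

end step23

section step45

theorem two_dvd_card' {A : Type*} [Group A] (h2 : ∀ a : A, a * a = 1)
    (hA : ∃ a : A, a ≠ 1) : 2 ∣ Nat.card A := by
  obtain ⟨a, ha⟩ := hA
  have h : orderOf a = 2 := orderOf_eq_prime (by rw [pow_two, h2]) ha
  rw [← h]
  exact orderOf_dvd_natCard a

variable {W V : Type*} [CommGroup W]

/-- the fixed points of `S`. -/
def fixSub (S : Subgroup (MulAut W)) : Subgroup W where
  carrier := {w | ∀ s ∈ S, s w = w}
  one_mem' := fun s _ => map_one s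
  mul_mem' := fun {a b} ha hb s hs => by rw [map_mul, ha s hs, hb s hs]
  inv_mem' := fun {a} ha s hs => by rw [map_inv, ha s hs]

theorem mem_fixSub {S : Subgroup (MulAut W)} {w : W} : w ∈ fixSub S ↔ ∀ s ∈ S, s w = w :=
  Iff.rfl

/-- the action of `S` on the cosets of an invariant subgroup. -/
@[reducible] def quotAction (S : Subgroup (MulAut W)) (U : Subgroup W)
    (hU : ∀ s ∈ S, ∀ u ∈ U, s u ∈ U) : MulAction S (W ⧸ U) where
  smul s := Quotient.map' (fun w => (s : MulAut W) w) (by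
    intro a b hab
    rw [QuotientGroup.leftRel_apply] at hab ⊢
    have := hU s s.2 _ hab
    rwa [map_mul, map_inv] at this)
  one_smul := by rintro ⟨w⟩; rfl
  mul_smul := by rintro s t ⟨w⟩; rfl

theorem fixSub_invariant {S K : Subgroup (MulAut W)}
    (hKS : ∀ k ∈ K, ∀ s ∈ S, k * s * k⁻¹ ∈ S) : ∀ k ∈ K, ∀ x ∈ fixSub S, k x ∈ fixSub S := by
  intro k hk x hx s hs
  have h1 := hKS k⁻¹ (K.inv_mem hk) s hs
  have h3 := hx _ h1
  rw [inv_inv, MulAut.mul_apply, MulAut.mul_apply] at h3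
  have h4 := congrArg k h3
  rwa [MulAut.apply_inv_self] at h4

variable [Finite W] [Finite V]

theorem step45 (h2 : ∀ w : W, w * w = 1) (Q : W → V)
    (hQs : Function.Surjective Q) (hV : 3 ≤ Nat.card V) (hW : Nat.card W ≤ Nat.card V ^ 2)
    (S K : Subgroup (MulAut W))
    (hS2 : IsPGroup 2 S) (hS1 : ∃ s ∈ S, s ≠ 1)
    (hKodd : Odd (Nat.card K)) (hKS : ∀ k ∈ K, ∀ s ∈ S, k * s * k⁻¹ ∈ S)
    (hKtr : ∀ w w' : W, w ≠ 1 → w' ≠ 1 → ∃ k ∈ K, Q (k w) = Q w') :
    (∀ u ∈ fixSub S, ∀ u' ∈ fixSub S, Q u = Q u' → u = u') ∧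
    (∀ w ∉ fixSub S, ∀ w' ∉ fixSub S, ∃ k ∈ K, k w * w' ∈ fixSub S) ∧
    (∀ s ∈ S, ∀ w, s w * w ∈ fixSub S) := by
  classical
  have : Fact (Nat.Prime 2) := ⟨Nat.prime_two⟩
  set U := fixSub S with hUdef
  have hUK : ∀ k ∈ K, ∀ x ∈ U, k x ∈ U := fixSub_invariant hKS
  have hcardW : 3 ≤ Nat.card W := hV.trans (Nat.card_le_card_of_surjective Q hQs)
  have hWnt : ∃ a : W, a ≠ 1 := by
    by_contra hcon
    push Not at hcon
    have : Subsingleton W := ⟨fun a b => by rw [hcon a, hcon b]⟩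
    have := Nat.card_of_subsingleton (1 : W)
    omega
  -- (1)
  have hU1 : U ≠ ⊥ := by
    obtain ⟨b, hb, hne⟩ := hS2.exists_fixed_point_of_prime_dvd_card_of_fixed_point W
      (two_dvd_card' h2 hWnt) (a := (1 : W)) (fun s => map_one (s : MulAut W))
    intro hbot
    have hbU : b ∈ U := fun s hs => hb ⟨s, hs⟩
    rw [hbot, Subgroup.mem_bot] at hbU
    exact hne hbU.symm
  obtain ⟨wU, hwU⟩ : ∃ w, w ∉ U := by
    obtain ⟨s, hs, hs1⟩ := hS1
    by_contra hcon
    push Not at hcon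
    exact hs1 (MulEquiv.ext fun w => hcon w s hs)
  -- (4)
  have hsurj := surj_on_invariant Q hQs K hKtr U hUK hU1
  have hge1 : Nat.card V ≤ Nat.card U := Nat.card_le_card_of_surjective _ hsurj
  have hge2 : ∀ X : Subgroup W, (∀ k ∈ K, ∀ x ∈ X, k x ∈ X) → X ≠ ⊤ →
      Nat.card V ≤ X.index := by
    intro X hX hXt
    obtain ⟨w, hw⟩ : ∃ w, w ∉ X := by
      by_contra hcon
      push Not at hcon
      exact hXt (eq_top_iff.mpr fun w _ => hcon w)
    obtain ⟨f, hf, -⟩ := cosets_of_invariant h2 Q hQs K hKodd hKtr X hX w hw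
    exact Nat.card_le_card_of_injective f hf
  have hUt : U ≠ ⊤ := fun h => hwU (h ▸ Subgroup.mem_top _)
  have hge3 := hge2 U hUK hUt
  have hmul : Nat.card U * U.index = Nat.card W := U.card_mul_index
  have hq : 0 < Nat.card V := by omega
  have hcU : Nat.card U = Nat.card V := by
    apply le_antisymm _ hge1
    by_contra hcon
    push Not at hcon
    nlinarith
  have hiU : U.index = Nat.card V := by
    apply le_antisymm _ hge3
    by_contra hcon
    push Not at hcon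
    nlinarith
  have hinj : ∀ u ∈ U, ∀ u' ∈ U, Q u = Q u' → u = u' := by
    intro u hu u' hu' h
    have hb := hsurj.bijective_of_nat_card_le hcU.le
    have := hb.1 (a₁ := ⟨u, hu⟩) (a₂ := ⟨u', hu'⟩) h
    exact congrArg Subtype.val this
  have htrans : ∀ w ∉ U, ∀ w' ∉ U, ∃ k ∈ K, k w * w' ∈ U := by
    intro w hw w' hw'
    obtain ⟨f, hf, hf'⟩ := cosets_of_invariant h2 Q hQs K hKodd hKtr U hUK w hw
    have hb := hf.bijective_of_nat_card_le (le_of_eq hiU)
    obtain ⟨v, hv⟩ := hb.2 (w' : W ⧸ U)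
    rcases hf' v with h | ⟨k, hk, h⟩
    · exfalso
      rw [h] at hv
      have := QuotientGroup.eq.mp hv
      rw [inv_one, one_mul] at this
      exact hw' this
    · refine ⟨k, hk, ?_⟩
      rw [h] at hv
      have := QuotientGroup.eq.mp hv
      rwa [inv_eq_self' h2] at this
  refine ⟨hinj, htrans, ?_⟩
  -- (5)
  have hUS : ∀ s ∈ S, ∀ u ∈ U, s u ∈ U := by
    intro s hs u hu
    rw [hu s hs]; exact hu
  let U2 : Subgroup W :=
    { carrier := {w | ∀ s ∈ S, s w * w ∈ U}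
      one_mem' := fun s _ => by simp [U.one_mem]
      mul_mem' := by
        intro a b ha hb s hs
        have h1 : s (a * b) * (a * b) = (s a * a) * (s b * b) := by
          rw [map_mul]; exact mul_mul_mul_comm _ _ _ _
        rw [h1]
        exact U.mul_mem (ha s hs) (hb s hs)
      inv_mem' := by
        intro a ha s hs
        rw [inv_eq_self' h2]
        exact ha s hs }
  have hU2K : ∀ k ∈ K, ∀ x ∈ U2, k x ∈ U2 := by
    intro k hk x hx s hs
    have h1 := hKS k⁻¹ (K.inv_mem hk) s hs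
    have h3 := hUK k hk _ (hx _ h1)
    rw [inv_inv, MulAut.mul_apply, MulAut.mul_apply, map_mul, MulAut.apply_inv_self] at h3
    exact h3
  have hUU2 : U ≤ U2 := by
    intro u hu s hs
    rw [hu s hs, h2]; exact U.one_mem
  have hU2ne : ¬ U2 ≤ U := by
    let _ := quotAction S U hUS
    have hnt : ∃ a : W ⧸ U, a ≠ 1 := by
      refine ⟨(wU : W ⧸ U), fun h => hwU ?_⟩
      exact (QuotientGroup.eq_one_iff wU).mp h
    have hq2 : ∀ a : W ⧸ U, a * a = 1 := by
      intro a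
      induction a using QuotientGroup.induction_on with
      | H a => rw [← QuotientGroup.mk_mul, h2]; rfl
    obtain ⟨b, hb, hne⟩ := hS2.exists_fixed_point_of_prime_dvd_card_of_fixed_point (W ⧸ U)
      (two_dvd_card' hq2 hnt) (a := ((1 : W) : W ⧸ U))
      (fun s => congrArg (QuotientGroup.mk (s := U)) (map_one (s : MulAut W)))
    induction b using QuotientGroup.induction_on with
    | H b =>
      intro hle
      apply hne
      have hbU2 : b ∈ U2 := by
        intro s hs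
        have h1 : ((s b : W) : W ⧸ U) = (b : W ⧸ U) := hb ⟨s, hs⟩
        have := QuotientGroup.eq.mp h1
        rwa [inv_eq_self' h2] at this
      exact ((QuotientGroup.eq_one_iff b).mpr (hle hbU2)).symm
  have hU2t : U2 = ⊤ := by
    by_contra hcon
    have h1 := hge2 U2 hU2K hcon
    have h3 := Subgroup.relIndex_mul_index hUU2
    apply hU2ne
    rw [← Subgroup.relIndex_eq_one]
    have h4 : U.relIndex U2 ≠ 0 := Subgroup.index_ne_zero_of_finite
    rw [hiU] at h3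
    by_contra h5
    have h6 : 2 ≤ U.relIndex U2 := by omega
    nlinarith
  intro s hs w
  have : w ∈ U2 := hU2t ▸ Subgroup.mem_top w
  exact this s hs

end step45

section step7

/-- (7) the weight argument. -/
theorem exists_weight {A : Type*} [Group A] [Finite A] (S Y : Subgroup A)
    (hSc : ∀ s ∈ S, ∀ t ∈ S, s * t = t * s) (hSS : ∀ s ∈ S, s * s = 1)
    (hYc : ∀ y ∈ Y, ∀ y' ∈ Y, y * y' = y' * y) (hY1 : Y ≠ ⊥)
    (hSY : ∀ s ∈ S, ∀ y ∈ Y, s * y * s⁻¹ ∈ Y) :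
    ∃ y ∈ Y, y ≠ 1 ∧ ∀ s ∈ S, s * y * s⁻¹ = y ∨ s * y * s⁻¹ = y⁻¹ := by
  classical
  obtain ⟨y0, hy0Y, hy01⟩ := Y.bot_or_exists_ne_one.resolve_left hY1
  obtain ⟨y, ⟨hyY, hy1⟩, hmax⟩ := Set.exists_max_image {y : A | y ∈ Y ∧ y ≠ 1}
    (fun y => Set.ncard {s : A | s ∈ S ∧ s * y * s⁻¹ = y}) (Set.toFinite _) ⟨y0, hy0Y, hy01⟩
  refine ⟨y, hyY, hy1, ?_⟩
  intro s0 hs0
  by_contra hcon
  push Not at hcon
  obtain ⟨hc1, hc2⟩ := hcon
  have hzY := hSY s0 hs0 y hyY
  have hy'1 : y * (s0 * y * s0⁻¹) ≠ 1 := by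
    intro h
    exact hc2 (eq_inv_of_mul_eq_one_right h)
  have h1 := hmax (y * (s0 * y * s0⁻¹)) ⟨Y.mul_mem hyY hzY, hy'1⟩
  have h3 : {s : A | s ∈ S ∧ s * y * s⁻¹ = y} ⊂
      {s : A | s ∈ S ∧ s * (y * (s0 * y * s0⁻¹)) * s⁻¹ = y * (s0 * y * s0⁻¹)} := by
    rw [Set.ssubset_iff_of_subset]
    · refine ⟨s0, ⟨hs0, ?_⟩, fun h => hc1 h.2⟩
      have h4 : s0 * (y * (s0 * y * s0⁻¹)) * s0⁻¹ = (s0 * y * s0⁻¹) * ((s0 * s0) * y * (s0 * s0)⁻¹) := by
        group
      rw [h4, hSS s0 hs0, inv_one, one_mul, mul_one]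
      exact hYc _ hzY _ hyY
    · rintro t ⟨htS, ht⟩
      refine ⟨htS, ?_⟩
      have h4 : t * (y * (s0 * y * s0⁻¹)) * t⁻¹ = (t * y * t⁻¹) * ((t * s0) * y * (t * s0)⁻¹) := by
        group
      have h5 : (s0 * t) * y * (s0 * t)⁻¹ = s0 * (t * y * t⁻¹) * s0⁻¹ := by group
      rw [h4, hSc t htS s0 hs0, h5, ht]
  have h6 := Set.ncard_lt_ncard h3 (Set.toFinite _)
  exact absurd h1 (not_le.mpr h6)

end step7

section step8

variable {W : Type*} [CommGroup W]

theorem fix_of_sq_fix (y : MulAut W) (hy : Odd (orderOf y)) (z : W) (h : y (y z) = z) :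
    y z = z := by
  obtain ⟨m, hm⟩ := hy
  have h1 : ∀ n : ℕ, ((y * y) ^ n) z = z := by
    intro n
    induction n with
    | zero => simp
    | succ n ih => rw [pow_succ, MulAut.mul_apply, MulAut.mul_apply, h, ih]
  have h3 : (y * y) ^ (m + 1) = y := by
    rw [← pow_two, ← pow_mul]
    have : 2 * (m + 1) = orderOf y + 1 := by omega
    rw [this, pow_succ, pow_orderOf_eq_one, one_mul]
  have h4 := h1 (m + 1)
  rwa [h3] at h4

theorem fix_of_comm_fix (y : MulAut W) (hy : Odd (orderOf y)) (z : W)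
    (h : y (y z * z) = y z * z) : y z = z := by
  apply fix_of_sq_fix y hy
  rw [map_mul, mul_comm (y z) z] at h
  exact mul_right_cancel h

end step8

section final

variable {W V : Type*} [CommGroup W] [Finite W] [Finite V]

/-- (11),(12): from the property (*) to a contradiction. -/
theorem final_contra (h2 : ∀ w : W, w * w = 1) (Q : W → V)
    (hQs : Function.Surjective Q) (hV : 3 ≤ Nat.card V)
    (S K : Subgroup (MulAut W))
    (hS3 : ∃ s ∈ S, ∃ t ∈ S, s ≠ 1 ∧ t ≠ 1 ∧ s ≠ t)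
    (hKS : ∀ k ∈ K, ∀ s ∈ S, k * s * k⁻¹ ∈ S)
    (hKtr : ∀ w w' : W, w ≠ 1 → w' ≠ 1 → ∃ k ∈ K, Q (k w) = Q w')
    (hSS : ∀ s ∈ S, ∀ w, s (s w) = w)
    (star : ∀ w, ∀ s ∈ S, ∀ s' ∈ S, s w ≠ w → s' w ≠ w → s (s' w) = w) : False := by
  classical
  have star2 : ∀ w, ∀ s ∈ S, ∀ s' ∈ S, s w ≠ w → s' w ≠ w → s w = s' w := by
    intro w s hs s' hs' h h'
    have h1 := congrArg s (star w s hs s' hs' h h')
    rw [hSS s hs] at h1
    exact h1.symm
  -- (11)
  have key0 : ∀ w1 w2, ∀ h ∈ S, ∀ s ∈ S, h w1 = w1 → h w2 ≠ w2 → s w1 ≠ w1 → s w2 = w2 →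
      s w1 * w1 = h w2 * w2 := by
    intro w1 w2 h hh s hs h1 h3 h4 h5
    have e1 : h (w1 * w2) ≠ w1 * w2 := by
      rw [map_mul, h1]
      exact fun e => h3 (mul_left_cancel e)
    have e2 : s (w1 * w2) ≠ w1 * w2 := by
      rw [map_mul, h5]
      exact fun e => h4 (mul_right_cancel e)
    have e3 := star2 _ s hs h hh e2 e1
    rw [map_mul, map_mul, h1, h5] at e3
    calc s w1 * w1 = (s w1 * w2) * (w1 * w2) := by
          rw [mul_mul_mul_comm, h2 w2, mul_one]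
      _ = (w1 * h w2) * (w1 * w2) := by rw [e3]
      _ = h w2 * w2 := by rw [mul_mul_mul_comm, h2 w1, one_mul]
  have key : ∀ w1 w2, ∀ h ∈ S, ∀ s ∈ S, h w1 = w1 → h w2 ≠ w2 → s w1 ≠ w1 →
      s w1 * w1 = h w2 * w2 := by
    intro w1 w2 h hh s hs h1 h3 h4
    by_cases h5 : s w2 = w2
    · exact key0 w1 w2 h hh s hs h1 h3 h4 h5
    · have e1 := key0 w1 w2 h hh (s * h) (S.mul_mem hs hh) h1 h3
        (by rw [MulAut.mul_apply, h1]; exact h4)
        (by rw [MulAut.mul_apply]; exact star w2 s hs h hh h5 h3)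
      rwa [MulAut.mul_apply, h1] at e1
  -- (12)
  obtain ⟨s, hs, t, ht, hs1, ht1, hst⟩ := hS3
  obtain ⟨w1, hw1⟩ : ∃ w, s w ≠ w := by
    by_contra hcon
    push Not at hcon
    exact hs1 (MulEquiv.ext hcon)
  obtain ⟨h, hh, hh1, hhw1⟩ : ∃ h ∈ S, h ≠ 1 ∧ h w1 = w1 := by
    by_cases e : t w1 = w1
    · exact ⟨t, ht, ht1, e⟩
    · refine ⟨s * t, S.mul_mem hs ht, ?_, ?_⟩
      · intro e1
        apply hst
        ext w
        have e2 : s (t w) = w := by
          have := congrArg (fun a : MulAut W => a w) e1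
          simpa using this
        have e3 := congrArg s e2
        rw [hSS s hs] at e3
        exact e3.symm
      · rw [MulAut.mul_apply]
        exact star w1 s hs t ht hw1 e
  obtain ⟨w2, hw2⟩ : ∃ w, h w ≠ w := by
    by_contra hcon
    push Not at hcon
    exact hh1 (MulEquiv.ext hcon)
  set c1 := s w1 * w1 with hc1
  have hc2 : c1 = h w2 * w2 := key w1 w2 h hh s hs hhw1 hw2 hw1
  have hc11 : c1 ≠ 1 := by
    intro e
    exact hw1 ((eq_iff_mul_eq_one' h2 _ _).mpr e)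
  have hall : ∀ s' ∈ S, ∀ w, s' w ≠ w → s' w * w = c1 := by
    intro s' hs' w hw
    by_cases e : h w = w
    · rw [hc2]
      exact key w w2 h hh s' hs' e hw2 hw
    · rw [star2 w s' hs' h hh hw e]
      exact (key w1 w h hh s hs hhw1 e hw1).symm
  have hKc : ∀ k ∈ K, k c1 = c1 := by
    intro k hk
    have e1 : (k * s * k⁻¹) (k w1) = k (s w1) := by
      rw [MulAut.mul_apply, MulAut.mul_apply, MulAut.inv_apply_self]
    have e2 := hall _ (hKS k hk s hs) (k w1) (by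
      rw [e1]
      exact fun e => hw1 (k.injective e))
    rw [e1, ← map_mul] at e2
    exact e2
  have hQall : ∀ v : V, v = Q 1 ∨ v = Q c1 := by
    intro v
    obtain ⟨w', rfl⟩ := hQs v
    by_cases e : w' = 1
    · left; rw [e]
    · right
      obtain ⟨k, hk, hkQ⟩ := hKtr c1 w' hc11 e
      rw [← hkQ, hKc k hk]
  have : Fintype V := Fintype.ofFinite V
  have hle : Fintype.card V ≤ 2 := by
    calc Fintype.card V = (Finset.univ : Finset V).card := rfl
      _ ≤ ({Q 1, Q c1} : Finset V).card := by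
          apply Finset.card_le_card
          intro v _
          rcases hQall v with e | e <;> simp [e]
      _ ≤ 2 := Finset.card_le_two
  rw [Nat.card_eq_fintype_card] at hV
  omega

theorem endgame_comm
    (h2 : ∀ w : W, w * w = 1) (Q : W → V)
    (hQs : Function.Surjective Q) (hV : 3 ≤ Nat.card V) (hW : Nat.card W ≤ Nat.card V ^ 2)
    (S K Y : Subgroup (MulAut W))
    (hS2 : IsPGroup 2 S)
    (hS3 : ∃ s ∈ S, ∃ t ∈ S, s ≠ 1 ∧ t ≠ 1 ∧ s ≠ t)
    (hKodd : Odd (Nat.card K)) (hKS : ∀ k ∈ K, ∀ s ∈ S, k * s * k⁻¹ ∈ S)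
    (hKtr : ∀ w w' : W, w ≠ 1 → w' ≠ 1 → ∃ k ∈ K, Q (k w) = Q w')
    (hYc : ∀ y ∈ Y, ∀ y' ∈ Y, y * y' = y' * y) (hYodd : Odd (Nat.card Y)) (hY1 : Y ≠ ⊥)
    (hYQ : ∀ y ∈ Y, ∀ w, Q (y w) = Q w) (hSY : ∀ s ∈ S, ∀ y ∈ Y, s * y * s⁻¹ ∈ Y) : False := by
  classical
  obtain ⟨hinj, htrans, h5⟩ := step45 h2 Q hQs hV hW S K hS2
    (by obtain ⟨s, hs, -, -, hs1, -⟩ := hS3; exact ⟨s, hs, hs1⟩) hKodd hKS hKtr
  set U := fixSub S with hU
  -- (6)
  have hSS : ∀ s ∈ S, ∀ w, s (s w) = w := by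
    intro s hs w
    have h1 : s (s w * w) = s w * w := h5 s hs w s hs
    rw [map_mul, mul_comm (s w) w] at h1
    exact mul_right_cancel h1
  have hSc : ∀ s ∈ S, ∀ t ∈ S, ∀ w, s (t w) = t (s w) := by
    intro s hs t ht w
    have h1 : s (t w * w) = t w * w := h5 t ht w s hs
    have h3 : t (s w * w) = s w * w := h5 s hs w t ht
    rw [map_mul] at h1 h3
    have e1 : s (t w) = t w * w * s w := by
      rw [← h1, mul_assoc, h2, mul_one]
    have e2 : t (s w) = s w * w * t w := by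
      rw [← h3, mul_assoc, h2, mul_one]
    rw [e1, e2, mul_comm (t w) w, mul_comm (s w) w, mul_assoc, mul_assoc, mul_comm (t w)]
  -- (7)
  obtain ⟨y, hyY, hy1, hyS⟩ := exists_weight S Y
    (fun s hs t ht => MulEquiv.ext fun w => hSc s hs t ht w)
    (fun s hs => MulEquiv.ext fun w => hSS s hs w) hYc hY1 hSY
  have hyodd : Odd (orderOf y) :=
    Odd.of_dvd_nat hYodd (Subgroup.orderOf_dvd_natCard Y hyY)
  -- (9)
  have h9 : ∀ h ∈ S, h * y * h⁻¹ = y → ∀ w, h (y w * w) = y w * w := by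
    intro h hh hhy w
    have hcomm : ∀ a, h (y a) = y (h a) := by
      intro a
      have e : h * y = y * h := mul_inv_eq_iff_eq_mul.mp hhy
      have := congrArg (fun f : MulAut W => f a) e
      simpa using this
    have ex : h (y w * w) * (y w * w) = y (h w * w) * (h w * w) := by
      rw [map_mul, map_mul, hcomm]
      rw [mul_mul_mul_comm, mul_mul_mul_comm (y (h w))]
    have hxU : h (y w * w) * (y w * w) ∈ U := h5 h hh _
    have hyxU : y (h (y w * w) * (y w * w)) ∈ U := by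
      rw [map_mul, ← hcomm]
      exact h5 h hh _
    have e1 := hinj _ hyxU _ hxU (hYQ y hyY _)
    rw [ex] at e1
    have e2 := fix_of_comm_fix y hyodd _ e1
    rw [e2, h2] at ex
    exact (eq_iff_mul_eq_one' h2 _ _).mpr ex
  -- (10)
  obtain ⟨w, hw0⟩ : ∃ w, y w * w ∉ U := by
    by_contra hcon
    push Not at hcon
    apply hy1
    ext w
    have e1 : y (y w * w) ∈ U := by
      rw [map_mul]; exact hcon (y w)
    exact fix_of_comm_fix y hyodd w (hinj _ e1 _ (hcon w) (hYQ y hyY _))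
  set w0 := y w * w with hw0def
  have star0 : ∀ s ∈ S, ∀ s' ∈ S, s w0 ≠ w0 → s' w0 ≠ w0 → s (s' w0) = w0 := by
    intro s hs s' hs' h h'
    have e1 : s * y * s⁻¹ = y⁻¹ := (hyS s hs).resolve_left fun e => h (h9 s hs e w)
    have e2 : s' * y * s'⁻¹ = y⁻¹ := (hyS s' hs').resolve_left fun e => h' (h9 s' hs' e w)
    have e3 : (s * s') * y * (s * s')⁻¹ = y := by
      have : (s * s') * y * (s * s')⁻¹ = s * (s' * y * s'⁻¹) * s⁻¹ := by group
      rw [this, e2]
      have : s * y⁻¹ * s⁻¹ = (s * y * s⁻¹)⁻¹ := by group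
      rw [this, e1, inv_inv]
    exact h9 (s * s') (S.mul_mem hs hs') e3 w
  have star : ∀ w, ∀ s ∈ S, ∀ s' ∈ S, s w ≠ w → s' w ≠ w → s (s' w) = w := by
    intro w' s hs s' hs' h h'
    have hw'U : w' ∉ U := fun e => h (e s hs)
    obtain ⟨k, hk, hku⟩ := htrans w0 hw0 w' hw'U
    have hw' : w' = k w0 * (k w0 * w') := (cancel_left' h2 _ _).symm
    have hfix : ∀ a ∈ S, a w' = a (k w0) * (k w0 * w') := by
      intro a ha
      conv_lhs => rw [hw', map_mul, hku a ha]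
    have hconj : ∀ a ∈ S, (k⁻¹ * a * k) ∈ S := by
      intro a ha
      have := hKS k⁻¹ (K.inv_mem hk) a ha
      rwa [inv_inv] at this
    have hne : ∀ a ∈ S, a w' ≠ w' → (k⁻¹ * a * k) w0 ≠ w0 := by
      intro a ha hne e
      apply hne
      rw [MulAut.mul_apply, MulAut.mul_apply] at e
      have e' := congrArg k e
      rw [MulAut.apply_inv_self] at e'
      rw [hfix a ha, e', cancel_left' h2]
    have e1 := star0 _ (hconj s hs) _ (hconj s' hs') (hne s hs h) (hne s' hs' h')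
    simp only [MulAut.mul_apply, MulAut.apply_inv_self] at e1
    have e2 := congrArg k e1
    rw [MulAut.apply_inv_self] at e2
    rw [hfix s' hs', map_mul, hku s hs, e2, cancel_left' h2]
  exact final_contra h2 Q hQs hV S K hS3 hKS hKtr hSS star

end final

/-- Piece E of S3797 (exact statement requested by helper63). -/
theorem endgame {W V : Type*} [Group W] [Finite W] [Finite V]
    (h2 : ∀ w : W, w * w = 1) (Q : W → V) (hQ0 : ∀ w, Q w = Q 1 → w = 1)
    (hQs : Function.Surjective Q) (hV : 3 ≤ Nat.card V) (hW : Nat.card W ≤ Nat.card V ^ 2)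
    (S K Y : Subgroup (MulAut W))
    (hS2 : IsPGroup 2 S) (hSQ : ∀ s ∈ S, ∀ w, Q (s w) = Q w)
    (hS3 : ∃ s ∈ S, ∃ t ∈ S, s ≠ 1 ∧ t ≠ 1 ∧ s ≠ t)
    (hKodd : Odd (Nat.card K)) (hKS : ∀ k ∈ K, ∀ s ∈ S, k * s * k⁻¹ ∈ S)
    (hKtr : ∀ w w' : W, w ≠ 1 → w' ≠ 1 → ∃ k ∈ K, Q (k w) = Q w')
    (hYc : ∀ y ∈ Y, ∀ y' ∈ Y, y * y' = y' * y) (hYodd : Odd (Nat.card Y)) (hY1 : Y ≠ ⊥)
    (hYQ : ∀ y ∈ Y, ∀ w, Q (y w) = Q w) (hSY : ∀ s ∈ S, ∀ y ∈ Y, s * y * s⁻¹ ∈ Y) : False := by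
  have hcomm : ∀ a b : W, a * b = b * a := by
    intro a b
    have hinv : ∀ x : W, x⁻¹ = x := fun x => inv_eq_of_mul_eq_one_left (h2 x)
    calc a * b = (a * b)⁻¹ := (hinv _).symm
      _ = b⁻¹ * a⁻¹ := mul_inv_rev a b
      _ = b * a := by rw [hinv, hinv]
  let inst : CommGroup W := { (inferInstance : Group W) with mul_comm := hcomm }
  exact @endgame_comm W V inst _ _ h2 Q hQs hV hW S K Y hS2 hS3 hKodd hKS hKtr hYc hYodd hY1
    hYQ hSY

end Cfsg.Agent.Lib.Helper86.OneClassE
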