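import Cfsg.Agent.Lib.Helper86.Centric

set_option autoImplicit false

/-! Subsystems over the same group: extending membership from a centric subgroup;
invariant subsystems: `Aut_E(R)` is normal in `Aut_F(R)` (helper86). -/

namespace Cfsg.Agent.Lib.Helper86

open Cfsg Cfsg.FusionSystem Cfsg.Agent.Lib.Helper84

variable {Ω : Type*} [Group Ω] {S : Subgroup Ω}

/-- Transport of membership in `Hom` along an equality of sources. -/
theorem hom_congr (E : FusionSystem S) {P P' : Subgroup Ω} (h : P = P') {χ : P →* Ω}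
    (hχ : χ ∈ E.Hom P) (χ' : P' →* Ω)
    (heq : ∀ (x : Ω) (hx : x ∈ P) (hx' : x ∈ P'), χ' ⟨x, hx'⟩ = χ ⟨x, hx⟩) : χ' ∈ E.Hom P' := by
  subst h
  have : χ' = χ := by
    ext x
    exact heq x x.2 x.2
  rwa [this]

theorem mor_conj_self (F : FusionSystem S) {P : Subgroup Ω} (hP : P ≤ S) (w : P) :
    Mor F (MulAut.conj w).toMonoidHom := by
  have := F.conj_mem (P := P) (g := (w : Ω)) hP (hP w.2)
  exact this

/-- Let `E ≤ F` be saturated fusion systems over the same finite `p`-group `S`, and `α ∈ Aut_F(S)` whose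
restriction to some `F`-centric subgroup is a map of `E`. Then `α ∈ Aut_E(S)`. -/
theorem aut_mem_of_restrict_centric [Finite S] {p : ℕ} [Fact p.Prime] (hS : IsPGroup p S)
    (F E : FusionSystem S) (hF : F.IsSaturated p) (hE : E.IsSaturated p)
    (hEF : ∀ P : Subgroup Ω, E.Hom P ⊆ F.Hom P) (α : MulAut S) (hα : Mor F α.toMonoidHom) (n : ℕ) :
    ∀ (P : Subgroup Ω) (hPS : P ≤ S) (_ : F.IsCentric P) (_ : Nat.card S - Nat.card P ≤ n)
      (_ : (S.subtype.comp α.toMonoidHom).comp (Subgroup.inclusion hPS) ∈ E.Hom P),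
      Mor E α.toMonoidHom := by
  induction n with
  | zero =>
    intro P hPS _ hn hφ
    have hcard : Nat.card S ≤ Nat.card P := by omega
    have hPeq : P = S := Subgroup.eq_of_le_of_card_ge hPS hcard
    exact hom_congr E hPeq hφ _ (fun x hx hx' => rfl)
  | succ n ih =>
    intro P hPS hPc hn hφ
    rcases eq_or_lt_of_le hPS with hPeq | hlt
    · exact hom_congr E hPeq hφ _ (fun x hx hx' => rfl)
    · set A : S →* Ω := S.subtype.comp α.toMonoidHom with hA
      have hAF : A ∈ F.Hom S := hα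
      set φ : P →* Ω := A.comp (Subgroup.inclusion hPS) with hφdef
      set N : Subgroup Ω := normalizerIn S P with hNdef
      have hPN : P < N := lt_inf_normalizer hS hlt
      have hNS : N ≤ S := normalizerIn_le S P
      set P₁ : Subgroup Ω := φ.range with hP₁
      have hP₁S : P₁ ≤ S := by
        rintro _ ⟨x, rfl⟩
        exact (E.le_of_mem hφ).2 x
      obtain ⟨P', hconj, hauto, hrec⟩ := hE P₁ hP₁S
      set N₁ : Subgroup Ω := normalizerIn S P₁ with hN₁
      obtain ⟨χ, hχ, hχN, hχmap⟩ := exists_normalizer_hom hS E hauto hrec hconj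
      have hmapA : (P.subgroupOf S).map A = P₁ := by
        ext y
        constructor
        · rintro ⟨x, hx, rfl⟩
          exact ⟨⟨x, hx⟩, rfl⟩
        · rintro ⟨x, rfl⟩
          exact ⟨Subgroup.inclusion hPS x, x.2, rfl⟩
      have hAN : ∀ y : N, (A.comp (Subgroup.inclusion hNS)) y ∈ N₁ := by
        intro y
        exact map_mem_normalizerIn F hAF hmapA (Subgroup.inclusion hNS y) y.2.2
      let AN : N →* N₁ := (A.comp (Subgroup.inclusion hNS)).codRestrict N₁ hAN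
      have hANF : Mor F AN := mor_of_mem F (restrict_mem F hAF hNS) hAN
      let κ : N →* Ω := χ.comp AN
      have hκF : κ ∈ F.Hom N := Mor.comp_hom (hEF _ hχ) hANF
      have hP₁N₁ : P₁ ≤ N₁ := le_normalizerIn hP₁S
      have hφN₁ : ∀ x : P, φ x ∈ N₁ := fun x => hP₁N₁ ⟨x, rfl⟩
      let φN : P →* N₁ := φ.codRestrict N₁ hφN₁
      have hφNE : Mor E φN := mor_of_mem E hφ hφN₁
      let θ : P →* Ω := χ.comp φN
      have hθ : θ ∈ E.Hom P := Mor.comp_hom hχ hφNE
      have hθrange : θ.range = P' := by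
        rw [← hχmap]
        ext y
        constructor
        · rintro ⟨x, rfl⟩
          exact ⟨φN x, ⟨x, rfl⟩, rfl⟩
        · rintro ⟨x, ⟨x', hx'⟩, rfl⟩
          refine ⟨x', ?_⟩
          show χ (φN x') = χ x
          congr 1
          exact Subtype.ext hx'
      let e : P ≃* P' := equivOfRange θ (E.injective_of_mem hθ) hθrange
      have he : Mor E e.toMonoidHom := mor_equivOfRange E hθ hθrange
      have hκθ : ∀ (x : Ω) (hxP : x ∈ P) (hxN : x ∈ N), κ ⟨x, hxN⟩ = θ ⟨x, hxP⟩ := by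
        intro x hxP hxN
        rfl
      obtain ⟨ρ, hρ, hρ'⟩ := exists_extension_of_receptive E hrec e he (N := N) le_rfl (by
        intro g hg
        refine ⟨κ ⟨g, hg⟩, (F.le_of_mem hκF).2 _, fun x hx => ?_⟩
        show θ ⟨g * x * g⁻¹, hx⟩ = κ ⟨g, hg⟩ * θ x * (κ ⟨g, hg⟩)⁻¹
        rw [← hκθ _ hx (hPN.le hx), ← hκθ x x.2 (hPN.le x.2), ← map_inv, ← map_mul, ← map_mul]
        rfl)
      obtain ⟨z, hzP, -, hz⟩ := eq_comp_conj_of_centric_normal hS F hF hPN.le hPc
        (inf_le_right : N ≤ _) ρ κ (hEF _ hρ) hκF (by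
          intro x hx
          rw [show x = ⟨(x : Ω), x.2⟩ from rfl, hρ' x hx x.2, hκθ x hx x.2]
          rfl)
      have hκE : κ ∈ E.Hom N := by
        have h1 : κ = ρ.comp (MulAut.conj z).toMonoidHom := by
          ext y
          exact hz y
        rw [h1]
        exact Mor.comp_hom hρ (mor_conj_self E hNS z)
      let eχ := equivOfRange χ (E.injective_of_mem hχ) rfl
      have heχ : Mor E eχ.toMonoidHom := mor_equivOfRange E hχ rfl
      have hκr : ∀ y : N, κ y ∈ χ.range := fun y => ⟨AN y, rfl⟩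
      have hANE : Mor E AN := by
        have h1 : AN = eχ.symm.toMonoidHom.comp (κ.codRestrict χ.range hκr) := by
          ext y
          have h2 : eχ (AN y) = κ.codRestrict χ.range hκr y := Subtype.ext rfl
          show ((AN y : N₁) : Ω) = ((eχ.symm (κ.codRestrict χ.range hκr y) : N₁) : Ω)
          rw [← h2, MulEquiv.symm_apply_apply]
        rw [h1]
        exact heχ.symm.comp (mor_of_mem E hκE hκr)
      have hfinN : Finite N := finite_of_le hNS
      have hcardlt : Nat.card P < Nat.card N := by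
        have hle : Nat.card P ≤ Nat.card N := Subgroup.card_le_of_le hPN.le
        rcases eq_or_lt_of_le hle with heq | hl
        · exact absurd (Subgroup.eq_of_le_of_card_ge hPN.le heq.ge) hPN.ne
        · exact hl
      exact ih N hNS (centric_of_le F hPc hPN.le hNS) (by omega) hANE

/-- If `E` over `T` is invariant in `F`, then `Aut_E(R)` is normalized by `Aut_F(R)` for `R ≤ T`. -/
theorem conj_mem_aut_of_invariant {T : Subgroup Ω} (F : FusionSystem S) (E : FusionSystem T)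
    (hinv : E.IsInvariantIn F) {R : Subgroup Ω} (hRT : R ≤ T) (a γ : MulAut R)
    (ha : Mor F a.toMonoidHom) (hγ : Mor E γ.toMonoidHom) : Mor E (a * γ * a⁻¹).toMonoidHom := by
  obtain ⟨-, -, h3, h4⟩ := hinv
  obtain ⟨α₁, hα₁, φ₀, hφ₀, hfac⟩ := h4 R hRT _ ha
  have hφ₀T : ∀ x : R, φ₀ x ∈ T := (E.le_of_mem hφ₀).2
  let e₀ := equivOfRange φ₀ (E.injective_of_mem hφ₀) rfl
  have he₀ : Mor E e₀.toMonoidHom := mor_equivOfRange E hφ₀ rfl
  have hR₀T : φ₀.range ≤ T := by
    rintro _ ⟨x, rfl⟩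
    exact hφ₀T x
  let c₀ : φ₀.range →* φ₀.range := (e₀.toMonoidHom.comp γ.toMonoidHom).comp e₀.symm.toMonoidHom
  have hc₀ : Mor E c₀ := (he₀.comp hγ).comp he₀.symm
  obtain ⟨χ, hχ, hχ'⟩ := h3 φ₀.range hR₀T _ hc₀ α₁ hα₁
  have hfac' : ∀ x : R, ((a x : R) : Ω) = ((α₁ ⟨φ₀ x, hφ₀T x⟩ : T) : Ω) := fun x => hfac x (hφ₀T x)
  have hR₂ : ((φ₀.range).subgroupOf T).map (T.subtype.comp α₁.toMonoidHom) = R := by
    ext y
    constructor
    · rintro ⟨x, ⟨r, hr⟩, rfl⟩
      have h1 : x = ⟨φ₀ r, hφ₀T r⟩ := Subtype.ext hr.symm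
      show ((α₁ x : T) : Ω) ∈ R
      rw [h1, ← hfac']
      exact (a r).2
    · intro hy
      refine ⟨⟨φ₀ (a⁻¹ ⟨y, hy⟩), hφ₀T _⟩, ⟨_, rfl⟩, ?_⟩
      show ((α₁ ⟨φ₀ (a⁻¹ ⟨y, hy⟩), hφ₀T _⟩ : T) : Ω) = y
      rw [← hfac']
      simp
  refine hom_congr E hR₂ hχ _ ?_
  intro y hy hy'
  -- y = a r
  set r : R := a⁻¹ ⟨y, hy'⟩ with hr
  have hyr : y = ((α₁ ⟨φ₀ r, hφ₀T r⟩ : T) : Ω) := by
    rw [← hfac', hr]
    simp
  have h5 := hχ' (e₀ r) (hR₀T (c₀ (e₀ r)).2) (by
    show ((α₁ ⟨φ₀ r, _⟩ : T) : Ω) ∈ _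
    rw [← hyr]; exact hy)
  have h6 : χ ⟨y, hy⟩ = χ ⟨((α₁ ⟨((e₀ r : φ₀.range) : Ω), hR₀T (e₀ r).2⟩ : T) : Ω), by
      show ((α₁ ⟨φ₀ r, _⟩ : T) : Ω) ∈ _
      rw [← hyr]; exact hy⟩ := by
    congr 1
    exact Subtype.ext hyr
  rw [h6, h5]
  show (((a * γ * a⁻¹) ⟨y, hy'⟩ : R) : Ω) = _
  rw [MulAut.mul_apply, MulAut.mul_apply, ← hr, hfac']
  have h7 : c₀ (e₀ r) = e₀ (γ r) := by
    show e₀ (γ (e₀.symm (e₀ r))) = e₀ (γ r)
    rw [MulEquiv.symm_apply_apply]
  congr 2
  apply Subtype.ext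
  show φ₀ (γ r) = ((c₀ (e₀ r) : φ₀.range) : Ω)
  rw [h7]
  rfl

/-- If `E` over `S` is invariant in `F` over `S` and `R` is fully automized in `F`, then `Aut_E(R)` contains
every element of `p`-power order of `Aut_F(R)`. -/
theorem pElement_mem_aut_of_invariant [Finite S] {p : ℕ} [Fact p.Prime] (F E : FusionSystem S)
    (hinv : E.IsInvariantIn F) {R : Subgroup Ω} (hR : F.IsFullyAutomized p R) (β : MulAut R)
    (hβ : Mor F β.toMonoidHom) (k : ℕ) (hk : β ^ (p ^ k) = 1) : Mor E β.toMonoidHom := by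
  obtain ⟨hRS, Rs, hRs⟩ := hR
  have hfin : Finite (F.autGroup R) := finite_autGroup F hRS
  have hU : Subgroup.zpowers β ≤ F.autGroup R := by
    rw [Subgroup.zpowers_le]; exact (mem_autGroup_iff F hRS β).2 hβ
  have hUp : IsPGroup p (Subgroup.zpowers β) := by
    rintro ⟨x, m, rfl⟩
    refine ⟨k, Subtype.ext ?_⟩
    show (β ^ m) ^ (p ^ k) = 1
    rw [← zpow_natCast, ← zpow_mul, mul_comm, zpow_mul, zpow_natCast, hk, one_zpow]
  obtain ⟨a, ha, hconj⟩ := exists_conj_le_of_sylow Rs hRs hU hUp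
  have h1 : a * β * a⁻¹ ∈ E.autGroup R :=
    autInducedBy_le_autGroup E hRS (hconj β (Subgroup.mem_zpowers β))
  have h2 : Mor E (a * β * a⁻¹).toMonoidHom := (mem_autGroup_iff E hRS _).1 h1
  have h3 : Mor F (a⁻¹).toMonoidHom :=
    (mem_autGroup_iff F hRS _).1 ((F.autGroup R).inv_mem ha)
  have h4 := conj_mem_aut_of_invariant F E hinv hRS a⁻¹ (a * β * a⁻¹) h3 h2
  have h5 : a⁻¹ * (a * β * a⁻¹) * a⁻¹⁻¹ = β := by group
  rwa [h5] at h4

end Cfsg.Agent.Lib.Helper86
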